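import Mathlib
import Cfsg.Agent.H174.F2Forms
set_option linter.all false

/-!
Quadratic forms over `F_2` with a fixed polarization: types and counting.
-/

set_option autoImplicit false

namespace Cfsg.Agent.H174

open Module Cfsg.Agent.ClassicalGeometry.QuadPlusBasic

/-- `F_2^{2m}` -/
abbrev V2 (m : ℕ) : Type := Fin m ⊕ Fin m → ZMod 2

/-- the polar form -/
abbrev pf (m : ℕ) : LinearMap.BilinForm (ZMod 2) (V2 m) := polarForm m (ZMod 2)

theorem pf_eq {m : ℕ} (u v : V2 m) : Cfsg.quadFormPlus m (ZMod 2) (u + v) -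
    Cfsg.quadFormPlus m (ZMod 2) u - Cfsg.quadFormPlus m (ZMod 2) v = pf m u v := by
  rw [quadFormPlus_add]
  ring

/-- `q` polarizes to the polar form of the plus form -/
def Fam {m : ℕ} (q : V2 m → ZMod 2) : Prop := ∀ u v, q (u + v) = q u + q v + pf m u v

theorem fam_iff {m : ℕ} (q : V2 m → ZMod 2) : (∀ u v : (Fin m ⊕ Fin m → ZMod 2), q (u + v) = q u + q v +
    (Cfsg.quadFormPlus m (ZMod 2) (u + v) - Cfsg.quadFormPlus m (ZMod 2) u -
      Cfsg.quadFormPlus m (ZMod 2) v)) ↔ Fam q := by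
  simp only [pf_eq]
  rfl

theorem add_self_two (a : ZMod 2) : a + a = 0 := CharTwo.add_self_eq_zero a

theorem two_cases (a : ZMod 2) : a = 0 ∨ a = 1 := by
  fin_cases a
  · left; rfl
  · right; rfl

theorem pf_self {m : ℕ} (v : V2 m) : pf m v v = 0 := by
  rw [← pf_eq]
  have : v + v = 0 := by
    ext i
    exact add_self_two _
  rw [this, quadFormPlus_apply, quadFormPlus_apply]
  simp only [Pi.zero_apply, mul_zero, Finset.sum_const_zero, zero_sub]
  rw [← neg_add', add_self_two, neg_zero]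

theorem pf_comm {m : ℕ} (u v : V2 m) : pf m u v = pf m v u := polarForm_comm m (ZMod 2) u v

theorem Fam.zero {m : ℕ} {q : V2 m → ZMod 2} (h : Fam q) : q 0 = 0 := by
  have h1 := h 0 0
  rw [add_zero, map_zero, add_zero] at h1
  linear_combination -h1

/-- as a quadratic form -/
def Fam.toQ {m : ℕ} {q : V2 m → ZMod 2} (h : Fam q) : QuadraticForm (ZMod 2) (V2 m) where
  toFun := q
  toFun_smul a v := by
    rcases two_cases a with rfl | rfl
    · rw [zero_smul, h.zero, mul_zero, zero_smul]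
    · rw [one_smul, mul_one, one_smul]
  exists_companion' := ⟨pf m, h⟩

theorem Fam.polar {m : ℕ} {q : V2 m → ZMod 2} (h : Fam q) (u v : V2 m) :
    QuadraticMap.polar h.toQ u v = pf m u v := by
  change q (u + v) - q u - q v = _
  rw [h u v]
  ring

theorem Fam.nondegenerate {m : ℕ} {q : V2 m → ZMod 2} (h : Fam q) :
    (QuadraticMap.polarBilin h.toQ).Nondegenerate := by
  have : QuadraticMap.polarBilin h.toQ = pf m := by
    ext u v
    simp only [LinearMap.comp_apply]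
    exact h.polar _ _
  rw [this]
  exact polarForm_nondegenerate m (ZMod 2)

/-- translation of a form by a vector -/
def tr {m : ℕ} (q : V2 m → ZMod 2) (w : V2 m) : V2 m → ZMod 2 := fun v => q v + pf m v w

theorem Fam.tr {m : ℕ} {q : V2 m → ZMod 2} (h : Fam q) (w : V2 m) : Fam (H174.tr q w) := by
  intro u v
  simp only [H174.tr, h u v, map_add, LinearMap.add_apply]
  ring

/-- the transvection in `w` -/
def trans {m : ℕ} (w : V2 m) : V2 m ≃ₗ[ZMod 2] V2 m :=
  LinearEquiv.ofInvolutive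
    { toFun := fun v => v + pf m v w • w
      map_add' := by intro u v; simp only [map_add, LinearMap.add_apply, add_smul]; abel
      map_smul' := by intro c v; simp only [map_smul, LinearMap.smul_apply, smul_add, smul_assoc,
        RingHom.id_apply] }
    (by
      intro v
      simp only [LinearMap.coe_mk, AddHom.coe_mk, map_add, map_smul, pf_self]
      rw [zero_smul, add_zero, add_assoc, ← add_smul, add_self_two, zero_smul, add_zero])

theorem trans_apply {m : ℕ} (w v : V2 m) : trans w v = v + pf m v w • w := rfl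

theorem tr_eq_trans {m : ℕ} {q : V2 m → ZMod 2} (h : Fam q) {w : V2 m} (hw : q w = 0) (v : V2 m) :
    tr q w v = q (trans w v) := by
  rw [trans_apply, h, tr]
  rcases two_cases (pf m v w) with h0 | h1
  · rw [h0, zero_smul, h.zero, map_zero, add_zero, add_zero]
  · rw [h1, one_smul, hw, h1]
    ring

/-- the character of `F_2` -/
def chi (a : ZMod 2) : ℤ := if a = 0 then 1 else -1

theorem chi_add (a b : ZMod 2) : chi (a + b) = chi a * chi b := by
  revert a b
  decide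

/-- the Gauss sum -/
def gs {m : ℕ} (q : V2 m → ZMod 2) : ℤ := ∑ v, chi (q v)

theorem sum_chi_pf {m : ℕ} {w : V2 m} (hw : w ≠ 0) : ∑ u, chi (pf m u w) = 0 := by
  obtain ⟨u₀, hu₀⟩ : ∃ u, pf m u w ≠ 0 := by
    by_contra h
    push Not at h
    exact hw ((polarForm_nondegenerate m (ZMod 2)).2 w h)
  have h1 : pf m u₀ w = 1 := (two_cases _).resolve_left hu₀
  have h2 : ∑ u, chi (pf m u w) = ∑ u, chi (pf m (u + u₀) w) :=
    (Equiv.sum_comp (Equiv.addRight u₀) (fun u => chi (pf m u w))).symm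
  have h3 : ∑ u, chi (pf m (u + u₀) w) = - ∑ u, chi (pf m u w) := by
    rw [← Finset.sum_neg_distrib]
    refine Finset.sum_congr rfl fun u _ => ?_
    rw [map_add, LinearMap.add_apply, chi_add, h1]
    have : chi 1 = -1 := by decide
    rw [this]
    ring
  linarith

theorem gs_sq {m : ℕ} {q : V2 m → ZMod 2} (h : Fam q) : gs q * gs q = 2 ^ (2 * m) := by
  classical
  have h1 : gs q * gs q = ∑ w, ∑ u, chi (q w) * chi (pf m u w) := by
    rw [gs, Finset.sum_mul_sum]
    have : ∀ u : V2 m, ∑ v, chi (q u) * chi (q v) = ∑ w, chi (q w) * chi (pf m u w) := by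
      intro u
      rw [← Equiv.sum_comp (Equiv.addLeft u)]
      refine Finset.sum_congr rfl fun w _ => ?_
      rw [Equiv.coe_addLeft, ← chi_add, ← chi_add, h u w]
      congr 1
      linear_combination add_self_two (q u)
    rw [Finset.sum_congr rfl (fun u _ => this u), Finset.sum_comm]
  rw [h1, Finset.sum_eq_single 0]
  · rw [h.zero]
    have : ∀ u : V2 m, chi 0 * chi (pf m u 0) = 1 := by
      intro u
      rw [map_zero]
      decide
    rw [Finset.sum_congr rfl (fun u _ => this u), Finset.sum_const, Finset.card_univ]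
    simp only [Fintype.card_pi, ZMod.card, Finset.prod_const, Finset.card_univ, Fintype.card_sum,
      Fintype.card_fin, nsmul_eq_mul, mul_one]
    push_cast
    ring
  · intro w _ hw
    rw [← Finset.mul_sum, sum_chi_pf hw, mul_zero]
  · intro h; exact absurd (Finset.mem_univ _) h

theorem gs_ne {m : ℕ} {q : V2 m → ZMod 2} (h : Fam q) : gs q ≠ 0 := by
  intro h0
  have h1 := gs_sq h
  rw [h0, mul_zero] at h1
  have h2 : (2 : ℤ) ^ (2 * m) ≠ 0 := pow_ne_zero _ two_ne_zero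
  exact h2 h1.symm

theorem gs_tr {m : ℕ} {q : V2 m → ZMod 2} (h : Fam q) (w : V2 m) : gs (tr q w) = chi (q w) * gs q := by
  rw [gs, gs, Finset.mul_sum, ← Equiv.sum_comp (Equiv.addRight w) (fun v => chi (q w) * chi (q v))]
  refine Finset.sum_congr rfl fun v _ => ?_
  rw [Equiv.coe_addRight, ← chi_add, tr, h v w]
  congr 1
  linear_combination - add_self_two (q w)

theorem gs_comp {m : ℕ} (q : V2 m → ZMod 2) (g : V2 m ≃ V2 m) : gs (fun v => q (g v)) = gs q :=
  Equiv.sum_comp g (fun v => chi (q v))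

/-- **the type of `q + f(·,w)`** -/
theorem tr_equiv_iff {m : ℕ} {q : V2 m → ZMod 2} (h : Fam q) (w : V2 m) :
    (∃ g : V2 m ≃ₗ[ZMod 2] V2 m, ∀ v, tr q w v = q (g v)) ↔ q w = 0 := by
  constructor
  · rintro ⟨g, hg⟩
    have h1 := gs_tr h w
    have h2 : gs (tr q w) = gs q := by
      have : tr q w = fun v => q (g.toEquiv v) := funext hg
      rw [this]
      exact gs_comp q g.toEquiv
    rw [h2] at h1
    rcases two_cases (q w) with h3 | h3
    · exact h3
    · rw [h3] at h1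
      have h4 : chi 1 = -1 := by decide
      rw [h4] at h1
      exact absurd (by linarith) (gs_ne h)
  · intro hw
    exact ⟨trans w, tr_eq_trans h hw⟩

/-! ### parametrization -/

theorem fam_plus (m : ℕ) : Fam (Cfsg.quadFormPlus m (ZMod 2) : V2 m → ZMod 2) := fun u v =>
  quadFormPlus_add m (ZMod 2) u v

theorem tr_injective {m : ℕ} (q : V2 m → ZMod 2) : Function.Injective (tr q) := by
  intro w w' h
  have h1 : ∀ v, pf m v w = pf m v w' := fun v => add_left_cancel (congrFun h v)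
  have h2 : w - w' = 0 := (polarForm_nondegenerate m (ZMod 2)).2 (w - w') fun v => by
    rw [map_sub, h1, sub_self]
  exact sub_eq_zero.1 h2

theorem exists_tr {m : ℕ} {q q' : V2 m → ZMod 2} (h : Fam q) (h' : Fam q') : ∃ w, q' = tr q w := by
  let ℓ : V2 m →ₗ[ZMod 2] ZMod 2 :=
    { toFun := fun v => q' v - q v
      map_add' := by
        intro u v
        rw [h u v, h' u v]
        ring
      map_smul' := by
        intro c v
        rcases two_cases c with rfl | rfl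
        · simp [h.zero, h'.zero]
        · simp }
  have hnd := polarForm_nondegenerate m (ZMod 2)
  refine ⟨(LinearMap.BilinForm.toDual (pf m) hnd).symm ℓ, ?_⟩
  funext v
  rw [tr, pf_comm, LinearMap.BilinForm.apply_toDual_symm_apply]
  change q' v = q v + (q' v - q v)
  ring

/-- the forms of the family are parametrized by vectors -/
noncomputable def famEquiv (m : ℕ) (P : (V2 m → ZMod 2) → Prop) :
    {w : V2 m // P (tr (Cfsg.quadFormPlus m (ZMod 2)) w)} ≃ {q : V2 m → ZMod 2 // Fam q ∧ P q} :=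
  Equiv.ofBijective (fun w => ⟨tr (Cfsg.quadFormPlus m (ZMod 2)) w.1, (fam_plus m).tr w.1, w.2⟩) (by
    constructor
    · intro w w' h
      exact Subtype.ext (tr_injective _ (congrArg Subtype.val h))
    · rintro ⟨q, hq, hP⟩
      obtain ⟨w, rfl⟩ := exists_tr (fam_plus m) hq
      exact ⟨⟨w, hP⟩, rfl⟩)

theorem card_V2 (m : ℕ) : Nat.card (V2 m) = 2 ^ (2 * m) := by
  rw [Nat.card_eq_fintype_card]
  simp only [Fintype.card_pi, ZMod.card, Finset.prod_const, Finset.card_univ, Fintype.card_sum,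
      Fintype.card_fin]
  congr 1
  ring

/-- plus type or minus type -/
theorem dichotomy {m : ℕ} (hm : 1 ≤ m) {q : V2 m → ZMod 2} (h : Fam q) :
    (∃ g : V2 m ≃ₗ[ZMod 2] V2 m, ∀ v, q v = Cfsg.quadFormPlus m (ZMod 2) (g v)) ∨
    (∃ g : V2 m ≃ₗ[ZMod 2] ((Fin (m - 1) ⊕ Fin (m - 1)) ⊕ Fin 2 → ZMod 2), ∀ v,
      q v = Cfsg.quadFormMinus (m - 1) (ZMod 2) 1 1 (g v)) := by
  have hV : finrank (ZMod 2) (V2 m) = 2 * m := finrank_space m (ZMod 2)
  rcases exists_std hm hV h.toQ h.nondegenerate with ⟨g, hg⟩ | ⟨ζ, g, hζ, hg⟩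
  · left
    exact ⟨g, hg⟩
  · right
    have h1 : ζ = 1 := by
      rcases two_cases ζ with h0 | h1
      · exact absurd (by rw [h0]; ring) (hζ 0)
      · exact h1
    subst h1
    exact ⟨g, hg⟩

theorem aniso_one : ∀ z₁ z₂ : ZMod 2, z₁ ^ 2 + 1 * z₁ * z₂ + 1 * z₂ ^ 2 = 0 → z₁ = 0 ∧ z₂ = 0 := by
  decide

theorem not_both {m : ℕ} (hm : 1 ≤ m) (g : V2 m ≃ₗ[ZMod 2] ((Fin (m - 1) ⊕ Fin (m - 1)) ⊕ Fin 2 → ZMod 2))
    (hg : ∀ v, Cfsg.quadFormPlus m (ZMod 2) v = Cfsg.quadFormMinus (m - 1) (ZMod 2) 1 1 (g v)) : False := by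
  have h1 := Cfsg.Agent.S0289.result (F := ZMod 2) (q := 2) (ZMod.card 2) m hm
  have h2 := Cfsg.Agent.S0290.result (F := ZMod 2) (q := 2) (ZMod.card 2) m hm 1 1 aniso_one
  have h3 : Nat.card {v : Fin m ⊕ Fin m → ZMod 2 // Cfsg.quadFormPlus m (ZMod 2) v = 0} =
      Nat.card {v : (Fin (m - 1) ⊕ Fin (m - 1)) ⊕ Fin 2 → ZMod 2 //
        Cfsg.quadFormMinus (m - 1) (ZMod 2) 1 1 v = 0} :=
    Nat.card_congr (Equiv.subtypeEquiv g.toEquiv fun v => by rw [hg v]; rfl)
  rw [h1, h2] at h3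
  obtain ⟨n, rfl⟩ : ∃ n, m = n + 1 := ⟨m - 1, by omega⟩
  have h4 : 2 * (n + 1) - 1 = 2 * n + 1 := by omega
  have h5 : n + 1 - 1 = n := by omega
  rw [h4, h5, pow_succ 2 n] at h3
  have h6 : 2 ^ n ≤ 2 ^ (2 * n) := Nat.pow_le_pow_right (by norm_num) (by omega)
  rw [pow_succ] at h3
  have h7 : 0 < 2 ^ n := by positivity
  omega

theorem card_plus {m : ℕ} (hm : 1 ≤ m) : Nat.card {q : V2 m → ZMod 2 // Fam q ∧
    ∃ g : V2 m ≃ₗ[ZMod 2] V2 m, ∀ v, q v = Cfsg.quadFormPlus m (ZMod 2) (g v)} =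
      2 ^ (2 * m - 1) + 2 ^ (m - 1) := by
  rw [← Nat.card_congr (famEquiv m fun q => ∃ g : V2 m ≃ₗ[ZMod 2] V2 m, ∀ v,
    q v = Cfsg.quadFormPlus m (ZMod 2) (g v))]
  rw [Nat.card_congr (Equiv.subtypeEquivRight fun w => tr_equiv_iff (fam_plus m) w)]
  have h1 := Cfsg.Agent.S0289.result (F := ZMod 2) (q := 2) (ZMod.card 2) m hm
  rw [h1]
  obtain ⟨n, rfl⟩ : ∃ n, m = n + 1 := ⟨m - 1, by omega⟩
  have h5 : 2 ^ (n + 1) = 2 * 2 ^ (n + 1 - 1) := by
    rw [Nat.add_sub_cancel]; ring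
  have h6 : 0 < 2 ^ (2 * (n + 1) - 1) := by positivity
  omega

theorem card_minus {m : ℕ} (hm : 1 ≤ m) : Nat.card {q : V2 m → ZMod 2 // Fam q ∧
    ∃ g : V2 m ≃ₗ[ZMod 2] ((Fin (m - 1) ⊕ Fin (m - 1)) ⊕ Fin 2 → ZMod 2), ∀ v,
      q v = Cfsg.quadFormMinus (m - 1) (ZMod 2) 1 1 (g v)} =
      2 ^ (2 * m - 1) - 2 ^ (m - 1) := by
  classical
  rw [← Nat.card_congr (famEquiv m fun q => ∃ g : V2 m ≃ₗ[ZMod 2]
    ((Fin (m - 1) ⊕ Fin (m - 1)) ⊕ Fin 2 → ZMod 2), ∀ v,
      q v = Cfsg.quadFormMinus (m - 1) (ZMod 2) 1 1 (g v))]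
  have key : ∀ w : V2 m, (∃ g : V2 m ≃ₗ[ZMod 2] ((Fin (m - 1) ⊕ Fin (m - 1)) ⊕ Fin 2 → ZMod 2), ∀ v,
      tr (Cfsg.quadFormPlus m (ZMod 2)) w v = Cfsg.quadFormMinus (m - 1) (ZMod 2) 1 1 (g v)) ↔
      ¬ (Cfsg.quadFormPlus m (ZMod 2) w = 0) := by
    intro w
    constructor
    · rintro ⟨g, hg⟩ hw
      obtain ⟨g', hg'⟩ := (tr_equiv_iff (fam_plus m) w).2 hw
      refine not_both hm (g'.symm.trans g) fun v => ?_
      have h1 := hg (g'.symm v)
      have h2 := hg' (g'.symm v)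
      rw [g'.apply_symm_apply] at h2
      rw [← h2, h1]
      rfl
    · intro hw
      rcases dichotomy hm ((fam_plus m).tr w) with h | h
      · exact absurd ((tr_equiv_iff (fam_plus m) w).1 h) hw
      · exact h
  rw [Nat.card_congr (Equiv.subtypeEquivRight key)]
  have h1 := Cfsg.Agent.S0289.result (F := ZMod 2) (q := 2) (ZMod.card 2) m hm
  have h2 : Nat.card {v : V2 m // Cfsg.quadFormPlus m (ZMod 2) v = 0} +
      Nat.card {v : V2 m // ¬ Cfsg.quadFormPlus m (ZMod 2) v = 0} = Nat.card (V2 m) := by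
    rw [Nat.card_eq_fintype_card, Nat.card_eq_fintype_card, Nat.card_eq_fintype_card,
      Fintype.card_subtype_compl]
    have := Fintype.card_subtype_le (fun v : V2 m => Cfsg.quadFormPlus m (ZMod 2) v = 0)
    omega
  rw [h1, card_V2] at h2
  obtain ⟨n, rfl⟩ : ∃ n, m = n + 1 := ⟨m - 1, by omega⟩
  have h4 : 2 * (n + 1) - 1 = 2 * n + 1 := by omega
  have h5 : n + 1 - 1 = n := by omega
  have h8 : 2 * (n + 1) = (2 * n + 1) + 1 := by ring
  rw [h4, h5, h8, pow_succ 2 n, pow_succ 2 (2 * n + 1)] at h2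
  rw [h4, h5]
  have h6 : 2 ^ n ≤ 2 ^ (2 * n) := Nat.pow_le_pow_right (by norm_num) (by omega)
  have h7 : 0 < 2 ^ n := by positivity
  have h9 : 2 ^ (2 * n + 1) = 2 * 2 ^ (2 * n) := by ring
  omega

end Cfsg.Agent.H174
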